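import Cfsg.Agent.Char.Orthogonality
import Cfsg.Agent.Char.Integrality

/-!
Character values at an element of prime order in terms of the eigenvalue multiplicities.
-/

set_option autoImplicit false

namespace Cfsg.Agent.M11Deg

open Cfsg
open scoped ComplexConjugate

variable {G : Type*} [Group G] [Finite G]

/-- Eigenvalue multiplicities of an element of order `p` in a character, indexed by exponents. -/
theorem exists_multiplicities {χ : G → ℂ} (hχ : IsCharacter G χ) {x : G} {p : ℕ} [hp : Fact p.Prime]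
    (hx : orderOf x = p) :
    ∃ (ζ : ℂ) (m : Fin p → ℕ), IsPrimitiveRoot ζ p ∧
      ∀ n : ℕ, χ (x ^ n) = ∑ j : Fin p, (m j : ℂ) * ζ ^ (j.val * n) := by
  classical
  obtain ⟨k, ρ, rfl⟩ := hχ
  obtain ⟨ε, hε, hsum⟩ := Char.exists_character_eq_sum_roots ρ x
  rw [hx] at hε
  haveI : NeZero p := ⟨hp.out.pos.ne'⟩
  obtain ⟨ζ, hζ⟩ : ∃ ζ : ℂ, IsPrimitiveRoot ζ p :=
    ⟨_, Complex.isPrimitiveRoot_exp p hp.out.pos.ne'⟩
  choose e he1 he2 using fun i => hζ.eq_pow_of_pow_eq_one (hε i)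
  let f := fun i => (⟨e i, he1 i⟩ : Fin p)
  refine ⟨ζ, fun j => (Finset.univ.filter fun i => f i = j).card, hζ, fun n => ?_⟩
  rw [hsum, ← Finset.sum_fiberwise Finset.univ f]
  refine Finset.sum_congr rfl fun j _ => ?_
  rw [Finset.sum_congr rfl (g := fun _ => ζ ^ (j.val * n)) fun i hi => ?_, Finset.sum_const,
    nsmul_eq_mul]
  rw [← he2 i, ← pow_mul]
  exact congrArg (fun z : Fin p => ζ ^ (z.val * n)) (Finset.mem_filter.mp hi).2

theorem sum_pow_mul {ζ : ℂ} {p : ℕ} [hp : Fact p.Prime] (hζ : IsPrimitiveRoot ζ p) (t : ℕ) :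
    ∑ n ∈ Finset.range p, ζ ^ (t * n) = if p ∣ t then (p : ℂ) else 0 := by
  simp_rw [pow_mul]
  split_ifs with h
  · rw [(hζ.pow_eq_one_iff_dvd t).mpr h]
    simp
  · have hne : ζ ^ t ≠ 1 := fun e => h ((hζ.pow_eq_one_iff_dvd t).mp e)
    rw [geom_sum_eq hne, ← pow_mul, mul_comm t p, pow_mul, hζ.pow_eq_one]
    simp

/-- Orthogonality of exponents. -/
theorem exp_orth {p : ℕ} (j i : Fin p) : p ∣ (j.val + (p - i.val)) ↔ j = i := by
  have hj := j.isLt
  have hi := i.isLt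
  constructor
  · rintro ⟨c, hc⟩
    have h1 : c = 1 := by
      rcases Nat.lt_trichotomy c 1 with h | h | h
      · have : c = 0 := by omega
        subst this
        omega
      · exact h
      · have : p * 2 ≤ p * c := Nat.mul_le_mul_left p h
        omega
    subst h1
    exact Fin.ext (by omega)
  · rintro rfl
    exact ⟨1, by omega⟩

/-- Fourier inversion. -/
theorem mult_eq {χ : G → ℂ} {x : G} {p : ℕ} [hp : Fact p.Prime] {ζ : ℂ} {m : Fin p → ℕ}
    (hζ : IsPrimitiveRoot ζ p)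
    (hm : ∀ n : ℕ, χ (x ^ n) = ∑ j : Fin p, (m j : ℂ) * ζ ^ (j.val * n)) (i : Fin p) :
    ∑ n ∈ Finset.range p, χ (x ^ n) * ζ ^ ((p - i.val) * n) = (p : ℂ) * m i := by
  classical
  simp_rw [hm, Finset.sum_mul]
  rw [Finset.sum_comm]
  simp_rw [mul_assoc, ← pow_add, ← add_mul, ← Finset.mul_sum, sum_pow_mul hζ]
  rw [Finset.sum_eq_single i]
  · rw [if_pos ((exp_orth i i).mpr rfl), mul_comm]
  · intro j _ hj
    rw [if_neg fun h => hj ((exp_orth j i).mp h), mul_zero]
  · intro h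
    exact absurd (Finset.mem_univ i) h

/-- The squares of the absolute values over the powers of `x`. -/
theorem norm_sum {χ : G → ℂ} {x : G} {p : ℕ} [hp : Fact p.Prime] {ζ : ℂ} {m : Fin p → ℕ}
    (hζ : IsPrimitiveRoot ζ p)
    (hm : ∀ n : ℕ, χ (x ^ n) = ∑ j : Fin p, (m j : ℂ) * ζ ^ (j.val * n)) :
    ∑ n ∈ Finset.range p, χ (x ^ n) * conj (χ (x ^ n)) = (p : ℂ) * ∑ j : Fin p, (m j : ℂ) ^ 2 := by
  have hc : ∀ t : ℕ, conj (ζ ^ t) * ζ ^ t = 1 := fun t => by
    rw [Complex.conj_mul', norm_pow, hζ.norm'_eq_one hp.out.pos.ne']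
    simp
  have key : ∀ (i : Fin p) (n : ℕ), conj (ζ ^ (i.val * n)) = ζ ^ ((p - i.val) * n) := by
    intro i n
    have h1 : ζ ^ ((p - i.val) * n) * ζ ^ (i.val * n) = 1 := by
      rw [← pow_add, ← add_mul, Nat.sub_add_cancel i.isLt.le, pow_mul, hζ.pow_eq_one, one_pow]
    exact mul_right_cancel₀ (pow_ne_zero _ (hζ.ne_zero hp.out.pos.ne')) ((hc _).trans h1.symm)
  calc ∑ n ∈ Finset.range p, χ (x ^ n) * conj (χ (x ^ n))
      = ∑ i : Fin p, ∑ n ∈ Finset.range p, (m i : ℂ) * (χ (x ^ n) * ζ ^ ((p - i.val) * n)) := by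
        rw [Finset.sum_comm]
        refine Finset.sum_congr rfl fun n _ => ?_
        conv_lhs => arg 2; rw [hm, map_sum]
        rw [Finset.mul_sum]
        refine Finset.sum_congr rfl fun i _ => ?_
        rw [map_mul, key, Complex.conj_natCast]
        ring
    _ = (p : ℂ) * ∑ j : Fin p, (m j : ℂ) ^ 2 := by
        rw [Finset.mul_sum]
        refine Finset.sum_congr rfl fun i _ => ?_
        rw [← Finset.mul_sum, mult_eq hζ hm i]
        ring

/-- An element conjugate to its square: an integral value congruent to the degree. -/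
theorem five_value {χ : G → ℂ} (hχ : IsCharacter G χ) {x : G} (hx : orderOf x = 5)
    (hcl : IsConj x (x ^ 2)) {d : ℕ} (hd : χ 1 = d) :
    ∃ v : ℤ, χ x = v ∧ (5 : ℤ) ∣ (d : ℤ) - v ∧ ∀ n, n % 5 ≠ 0 → χ (x ^ n) = v := by
  have : Fact (Nat.Prime 5) := ⟨by decide⟩
  have hf := Char.isCharacter_isClassFunction hχ
  have hpow : ∀ n : ℕ, IsConj (x ^ n) (x ^ (2 * n)) := fun n => by
    rw [pow_mul]; exact IsConj.pow n hcl
  have hstep : ∀ n : ℕ, χ (x ^ (2 * n)) = χ (x ^ n) := fun n =>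
    (Char.isClassFunction_eq_of_isConj hf (hpow n)).symm
  have hmod : ∀ n : ℕ, x ^ n = x ^ (n % 5) := fun n => by rw [← hx, pow_mod_orderOf]
  have h2 : χ (x ^ 2) = χ x := by simpa using hstep 1
  have h4 : χ (x ^ 4) = χ x := by rw [show 4 = 2 * 2 from rfl, hstep, h2]
  have h3 : χ (x ^ 3) = χ x := by
    have h6 := hstep 3
    rw [hmod (2 * 3)] at h6
    simpa using h6.symm
  obtain ⟨ζ, m, hζ, hm⟩ := exists_multiplicities hχ hx
  have h0 := mult_eq hζ hm (0 : Fin 5)
  simp only [Finset.sum_range_succ, Finset.sum_range_zero, zero_add, pow_zero, pow_one,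
    Fin.val_zero, Nat.sub_zero, pow_mul, hζ.pow_eq_one, one_pow, mul_one, hd, h2, h3, h4] at h0
  push_cast at h0
  have hrat : χ x = (((5 * (m 0 : ℤ) - d : ℤ) : ℚ) / 4 : ℚ) := by
    push_cast
    linear_combination h0 / 4
  obtain ⟨z, hz⟩ := Char.exists_int_of_isIntegral_rat
    (hrat ▸ Char.isCharacter_isIntegral hχ x)
  have hv : χ x = (z : ℂ) := by rw [hrat, hz]; simp
  refine ⟨z, hv, ⟨(m 0 : ℤ) - z, ?_⟩, fun n hn => ?_⟩
  · have h5 : ((d : ℤ) : ℂ) + 4 * (z : ℂ) = 5 * ((m 0 : ℤ) : ℂ) := by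
      push_cast
      linear_combination h0 - 4 * hv
    have h6 : (d : ℤ) + 4 * z = 5 * (m 0 : ℤ) := by exact_mod_cast h5
    linarith
  · rw [hmod n, ← hv]
    have := Nat.mod_lt n (show 5 > 0 by norm_num)
    interval_cases h : n % 5
    · exact absurd rfl hn
    · rw [pow_one]
    · exact h2
    · exact h3
    · exact h4

/-- An element of order eleven conjugate to its third power. -/
theorem eleven_value {χ : G → ℂ} (hχ : IsCharacter G χ) {x : G} (hx : orderOf x = 11)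
    (hcl : IsConj x (x ^ 3)) {d : ℕ} (hd : χ 1 = d) :
    ∃ a b c : ℕ, d = c + 5 * a + 5 * b ∧
      ∑ n ∈ Finset.range 11, χ (x ^ n) * conj (χ (x ^ n)) =
        ((11 * (c * c + 5 * (a * a) + 5 * (b * b)) : ℕ) : ℂ) := by
  have : Fact (Nat.Prime 11) := ⟨by decide⟩
  have hf := Char.isCharacter_isClassFunction hχ
  obtain ⟨ζ, m, hζ, hm⟩ := exists_multiplicities hχ hx
  have hstep : ∀ n : ℕ, χ (x ^ (3 * n)) = χ (x ^ n) := fun n => by
    rw [pow_mul]
    exact (Char.isClassFunction_eq_of_isConj hf (IsConj.pow n hcl)).symm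
  have hinv : ∀ i : Fin 11, m (3 * i) = m i := by
    intro i
    have h1 := mult_eq hζ hm (3 * i)
    have h2 := mult_eq hζ hm i
    have h : ∑ n ∈ Finset.range 11, χ (x ^ n) * ζ ^ ((11 - i.val) * n) =
        ∑ n ∈ Finset.range 11, χ (x ^ n) * ζ ^ ((11 - (3 * i).val) * n) := by
      refine Finset.sum_nbij' (fun n => 4 * n % 11) (fun n => 3 * n % 11) ?_ ?_ ?_ ?_ ?_
      · intro n hn; simp only [Finset.mem_range] at *; omega
      · intro n hn; simp only [Finset.mem_range] at *; omega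
      · intro n hn; simp only [Finset.mem_range] at *; omega
      · intro n hn; simp only [Finset.mem_range] at *; omega
      · intro n hn
        rw [Finset.mem_range] at hn
        have e1 : χ (x ^ (4 * n % 11)) = χ (x ^ n) := by
          rw [← hstep (4 * n % 11)]
          congr 1
          rw [← pow_mod_orderOf x (3 * (4 * n % 11)), hx]
          congr 1
          omega
        have e2 : ζ ^ ((11 - (3 * i).val) * (4 * n % 11)) = ζ ^ ((11 - i.val) * n) := by
          have key : ∀ i : Fin 11, ∀ n < 11,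
              (11 - (3 * i).val) * (4 * n % 11) % 11 = (11 - i.val) * n % 11 := by decide
          rw [pow_eq_pow_mod _ hζ.pow_eq_one, key i n hn, ← pow_eq_pow_mod _ hζ.pow_eq_one]
        rw [e1, e2]
    rw [h, h1] at h2
    exact_mod_cast mul_left_cancel₀ (by norm_num : ((11 : ℕ) : ℂ) ≠ 0) h2
  have i1 : m 3 = m 1 := hinv 1
  have i3 : m 9 = m 3 := hinv 3
  have i9 : m 5 = m 9 := hinv 9
  have i5 : m 4 = m 5 := hinv 5
  have i2 : m 6 = m 2 := hinv 2
  have i6 : m 7 = m 6 := hinv 6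
  have i7 : m 10 = m 7 := hinv 7
  have i10 : m 8 = m 10 := hinv 10
  have hS : ∀ f : Fin 11 → ℕ, ∑ j, f j =
      f 0 + f 1 + f 2 + f 3 + f 4 + f 5 + f 6 + f 7 + f 8 + f 9 + f 10 := by
    intro f
    rw [Fin.sum_univ_def, show List.finRange 11 = [0, 1, 2, 3, 4, 5, 6, 7, 8, 9, 10] by decide]
    simp only [List.map_cons, List.map_nil, List.sum_cons, List.sum_nil]
    omega
  refine ⟨m 1, m 2, m 0, ?_, ?_⟩
  · have h0 := hm 0
    rw [pow_zero, hd] at h0
    simp only [mul_zero, pow_zero, mul_one] at h0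
    have h0' : d = ∑ j : Fin 11, m j := by exact_mod_cast h0
    rw [h0', hS]
    omega
  · rw [norm_sum hζ hm]
    have h2 : ∑ j : Fin 11, m j ^ 2 = m 0 * m 0 + 5 * (m 1 * m 1) + 5 * (m 2 * m 2) := by
      rw [hS, i10, i7, i6, i2, i5, i9, i3, i1]
      ring
    rw [← h2]
    push_cast
    ring

end Cfsg.Agent.M11Deg
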