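import Mathlib

/-!
Exhaustive search for the degree multiset of a group of order `7920` subject to the constraints
coming from the columns at elements of order `5` and `11`.
-/

set_option autoImplicit false

namespace Cfsg.Agent.M11Deg

/-- Candidate degrees, each with a lower bound for its contribution to the columns at elements of
order eleven and with its value at an element of order five. -/
def items : List (ℕ × ℕ × ℤ) :=
  [(72, 30, 2), (48, 50, -2), (18, 50, -2), (12, 10, 2), (8, 90, -2), (3, 90, -2), (2, 40, 2),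
    (36, 90, 1), (24, 40, -1), (16, 30, 1), (9, 150, -1), (6, 30, 1), (4, 160, -1), (80, 90, 0),
    (60, 30, 0), (45, 10, 0), (40, 50, 0), (30, 90, 0), (20, 40, 0), (15, 50, 0), (10, 10, 0),
    (5, 30, 0), (88, 0, -2), (33, 0, -2), (22, 0, 2), (66, 0, 1), (44, 0, -1), (11, 0, 1),
    (55, 0, 0)]

/-- All vectors of multiplicities meeting the four constraints. -/
def search : List (ℕ × ℕ × ℤ) → ℕ → ℕ → ℕ → ℤ → List (List ℕ)
  | [], s, _, q, l => bif s == 0 && q == 0 && l == 0 then [[]] else []
  | (d, W, v) :: L, s, a, q, l =>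
    (List.range (min (s / (d * d)) (bif W == 0 then s else a / W) + 1)).flatMap fun n =>
      bif Nat.ble (n * (v.natAbs * v.natAbs)) q then
        (search L (s - n * (d * d)) (a - n * W) (q - n * (v.natAbs * v.natAbs))
          (l - (n : ℤ) * ((d : ℤ) * v))).map (n :: ·)
      else []

theorem search_complete (c : ℕ → ℕ) : ∀ (L : List (ℕ × ℕ × ℤ)), (∀ e ∈ L, 0 < e.1) →
    ∀ (s a q : ℕ) (l : ℤ),
    (L.map fun e => c e.1 * (e.1 * e.1)).sum = s → (L.map fun e => c e.1 * e.2.1).sum ≤ a →
    (L.map fun e => c e.1 * (e.2.2.natAbs * e.2.2.natAbs)).sum = q →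
    (L.map fun e => (c e.1 : ℤ) * ((e.1 : ℤ) * e.2.2)).sum = l →
    L.map (fun e => c e.1) ∈ search L s a q l := by
  intro L
  induction L with
  | nil =>
    intro _ s a q l hs _ hq hl
    simp only [List.map_nil, List.sum_nil] at hs hq hl
    subst hs; subst hq; subst hl
    simp [search]
  | cons e L ih =>
    obtain ⟨d, W, v⟩ := e
    intro hpos s a q l hs ha hq hl
    simp only [List.map_cons, List.sum_cons] at hs ha hq hl
    have hd : 0 < d := hpos (d, W, v) (List.mem_cons_self ..)
    rw [search]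
    refine List.mem_flatMap.mpr ⟨c d, List.mem_range.mpr ?_, ?_⟩
    · refine Nat.lt_succ_of_le (le_min ((Nat.le_div_iff_mul_le (Nat.mul_pos hd hd)).mpr (by omega)) ?_)
      rcases Nat.eq_zero_or_pos W with rfl | hW
      · have h1 : c d ≤ c d * (d * d) := Nat.le_mul_of_pos_right _ (Nat.mul_pos hd hd)
        simp only [BEq.rfl, cond_true]
        omega
      · rw [show (W == 0) = false by simpa using hW.ne', cond_false]
        exact (Nat.le_div_iff_mul_le hW).mpr (by omega)
    · rw [show Nat.ble (c d * (v.natAbs * v.natAbs)) q = true by rw [Nat.ble_eq]; omega, cond_true,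
        List.map_cons, List.mem_map]
      exact ⟨_, ih (fun e he => hpos e (List.mem_cons_of_mem _ he)) _ _ _ _ (by omega) (by omega)
        (by omega) (by omega), rfl⟩

theorem search_eq : search items 7919 100 4 (-1) =
    [items.map fun e => if e.1 = 11 ∨ e.1 = 44 ∨ e.1 = 45 ∨ e.1 = 55 then 1
      else if e.1 = 10 then 3 else if e.1 = 16 then 2 else 0] := by
  decide +kernel

/-- The candidate degrees. -/
def degrees : Finset ℕ := (items.map fun e => e.1).toFinset

theorem items_nodup : (items.map fun e => e.1).Nodup := by decide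

theorem mem_items_of_dvd {d : ℕ} (h2 : 2 ≤ d) (h89 : d < 89) (hd : d ∣ 7920) :
    ∃ e ∈ items, e.1 = d := by
  have key : ∀ n < 89, 2 ≤ n → 7920 % n = 0 → (items.map fun e => e.1).contains n = true := by
    decide +kernel
  have := key d h89 h2 (Nat.mod_eq_zero_of_dvd hd)
  simpa using this

theorem items_value : ∀ e ∈ items, (5 : ℤ) ∣ (e.1 : ℤ) - e.2.2 ∧ -2 ≤ e.2.2 ∧ e.2.2 ≤ 2 := by
  decide +kernel

theorem items_bound : ∀ e ∈ items, ∀ a < 18, ∀ b < 18, 5 * a + 5 * b ≤ e.1 →
    e.2.1 + e.1 * e.1 ≤
      11 * ((e.1 - 5 * a - 5 * b) * (e.1 - 5 * a - 5 * b) + 5 * (a * a) + 5 * (b * b)) := by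
  decide +kernel

end Cfsg.Agent.M11Deg
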